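import Cfsg.Agent.Lib.Helper10.O720.C1core
import Cfsg.Agent.Lib.Helper20.O720.P9
import Cfsg.Agent.Lib.Helper22.O720.T0
import Cfsg.Agent.Lib.Helper63.O720.T0d
import Cfsg.Agent.Lib.Helper50.O720.A40
import Cfsg.Agent.Lib.Helper1.O720.T1

set_option autoImplicit false

/-! O720 farm (helper74), piece C1. -/

namespace Cfsg.Agent.Lib.Helper74.O720

variable {G : Type*} [Group G] [Finite G] [IsSimpleGroup G]

/-- [C1] -/
theorem C1_alt10 (h : Nat.card G = 720) (h40 : Nat.card (Sylow 3 G) = 40) (X : Subgroup G) (hX : Nat.card X = 3)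
    (P1 P2 : Sylow 3 G) (h12 : P1 ≠ P2) (h1 : X ≤ (P1 : Subgroup G)) (h2 : X ≤ (P2 : Subgroup G)) :
    Nat.card (Cz X) = 36 := by
  have hXb : X ≠ ⊥ := by
    intro hb
    rw [hb, Subgroup.card_bot] at hX
    omega
  have hXt : X ≠ ⊤ := by
    intro ht
    rw [ht, Subgroup.card_top, h] at hX
    omega
  have hCt : Cz X ≠ ⊤ := by
    intro ht
    apply Nz_ne_top X hXb hXt
    apply top_le_iff.1
    rw [← ht]
    intro y hy
    rw [Subgroup.mem_normalizer_iff]
    intro u
    rw [Subgroup.mem_centralizer_iff] at hy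
    constructor
    · intro hu
      rw [← hy u hu, mul_assoc, mul_inv_cancel, mul_one]
      exact hu
    · intro hu
      have h3 := hy _ hu
      have h4 : y * u * y⁻¹ = u := by
        have h5 : y * u * y⁻¹ * y = y * (y * u * y⁻¹) := h3
        have h6 : y * u = y * (y * u * y⁻¹) := by
          rw [← h5]; group
        exact (mul_left_cancel h6).symm
      rw [← h4]
      exact hu
  exact C1_core h X hX P1 P2 h12 h1 h2 (card_P h) (comm_P h)
    (fun t ht htP u hu => A40 h h40 P1 t ht htP u hu) (no15 h X hX) (index_ge h (Cz X) hCt)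

end Cfsg.Agent.Lib.Helper74.O720
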